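import Mathlib
import Cfsg.Agent.Lib.Ambiv.Basic
import Cfsg.Agent.Lib.TwoGrp.Fpf3
import Cfsg.Agent.Lib.Char.Burnside
import Cfsg.Agent.Lib.Coprime.Generation
import Cfsg.Agent.Lib.PLocal.PSolvable
import Cfsg.Agent.Lib.Core.Commutator

/-!
# Groups whose elements have order at most four
-/

set_option autoImplicit false

namespace CfsgLib.Spec34

open Subgroup Cfsg CfsgLib.PLocal
open scoped commutatorElement

variable {G : Type*} [Group G]

theorem s3_action [Finite G] (hG : IsPGroup 2 G) {σ τ : MulAut G} (hσ : ∀ x, σ x = x → x = 1)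
    (h3 : ∀ x, σ (σ (σ x)) = x) (hτ : ∀ x, τ (σ x) = σ (σ (τ x)))
    (h : ∀ x, x * τ x * (x * τ x) = 1) : (∀ x y : G, x * y = y * x) ∧ ∀ x : G, x * x = 1 := by
  have hz := TwoGrp.fpf3_commutator_mem_center hσ h3 hG
  have hl : ∀ a b c : G, ⁅a * b, c⁆ = ⁅a, c⁆ * ⁅b, c⁆ := fun a b c => by
    calc ⁅a * b, c⁆ = a * ⁅b, c⁆ * a⁻¹ * ⁅a, c⁆ := by simp only [commutatorElement_def]; group
      _ = _ := by rw [mem_center_iff.mp (hz b c) a, mul_inv_cancel_right,
        mem_center_iff.mp (hz a c)]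
  have hr : ∀ a b c : G, ⁅a, b * c⁆ = ⁅a, b⁆ * ⁅a, c⁆ := fun a b c => by
    calc ⁅a, b * c⁆ = ⁅a, b⁆ * (b * ⁅a, c⁆ * b⁻¹) := by simp only [commutatorElement_def]; group
      _ = _ := by rw [mem_center_iff.mp (hz a c) b, mul_inv_cancel_right]
  have hdec : ∀ x : G, ∃ n m : G, x = σ (σ (n * τ n)) * (m * τ m) := by
    intro x
    obtain ⟨g, hg⟩ := TwoGrp.fpf_exists_eq hσ x⁻¹
    refine ⟨σ (σ g⁻¹), σ (σ (σ g⁻¹)), ?_⟩
    rw [← inv_eq_of_mul_eq_one_right (h (σ (σ (σ g⁻¹)))), hτ (σ (σ g⁻¹)), map_mul, map_mul, h3,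
      h3, inv_eq_iff_eq_inv.mp hg, map_inv]
    group
  have hone : ∀ a : G, ⁅(1 : G), a⁆ = 1 := fun a => commutatorElement_one_left a
  have hs : ∀ n, σ (σ (n * τ n)) * σ (σ (n * τ n)) = 1 := fun n => by
    rw [← map_mul, ← map_mul, h, map_one, map_one]
  have hc2 : ∀ a b : G, ⁅a, b⁆ * ⁅a, b⁆ = 1 := by
    intro a b
    obtain ⟨n, m, rfl⟩ := hdec a
    rw [hl, mul_assoc, ← mul_assoc ⁅m * τ m, b⁆, mem_center_iff.mp (hz _ b) ⁅m * τ m, b⁆, mul_assoc,
      ← mul_assoc, ← hl, ← hl, hs, h, hone, one_mul]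
  have inv2 : ∀ {a b : G}, a * a = 1 → b * b = 1 → a * b * (a * b) = 1 → a * b = b * a := by
    intro a b ha hb hab
    rw [← inv_eq_of_mul_eq_one_right hab, mul_inv_rev, inv_eq_of_mul_eq_one_right ha,
      inv_eq_of_mul_eq_one_right hb]
  have hI : ∀ n m : G, n * τ n * (m * τ m) = m * τ m * (n * τ n) := by
    intro n m
    refine inv2 (h n) (h m) ?_
    have e : n * τ n * (m * τ m) = ⁅τ n, m⁆ * (n * m * τ (n * m)) := by
      rw [← mem_center_iff.mp (hz _ _), map_mul]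
      calc n * τ n * (m * τ m) = n * (⁅τ n, m⁆ * (m * τ n * τ m)) := by
            rw [commutatorElement_def]; group
        _ = _ := by rw [← mem_center_iff.mp (hz _ _)]; group
    rw [e, mul_assoc, ← mul_assoc (n * m * τ (n * m)), mem_center_iff.mp (hz _ _), mul_assoc, h,
      mul_one, hc2]
  have key : ∀ c d : G, c * d = d * c → ⁅c, σ (σ d)⁆ = 1 := by
    intro c d hcd
    have e0 : ∀ a : G, ⁅a, σ a⁆ = 1 := fun a =>
      commutatorElement_eq_one_iff_commute.mpr (TwoGrp.fpf3_commute hσ h3 a)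
    have e1 : ⁅c, σ d⁆ * ⁅d, σ c⁆ = 1 := by
      have := e0 (c * d)
      rwa [map_mul, hl, hr, hr, e0, e0, one_mul, mul_one] at this
    have e2 : ⁅c, σ d⁆ * ⁅c, σ (σ d)⁆ = 1 := by
      have := congrArg (fun w => ⁅c, w⁆) (TwoGrp.fpf3_norm hσ h3 d)
      simp only [hr, commutatorElement_one_right] at this
      rwa [commutatorElement_eq_one_iff_mul_comm.mpr hcd, one_mul] at this
    apply hσ
    rw [map_commutatorElement, h3, ← commutatorElement_inv, ← inv_eq_of_mul_eq_one_right e1,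
      inv_inv, ← inv_eq_of_mul_eq_one_right e2, inv_eq_of_mul_eq_one_right (hc2 _ _)]
  have k2 : ∀ n m : G, ⁅n * τ n, σ (σ (m * τ m))⁆ = 1 := fun n m => key _ _ (hI n m)
  have k3 : ∀ n m : G, ⁅σ (σ (m * τ m)), n * τ n⁆ = 1 := fun n m => by
    rw [← commutatorElement_inv, k2, inv_one]
  have hcomm : ∀ x y : G, x * y = y * x := by
    intro x y
    obtain ⟨n, m, rfl⟩ := hdec x
    obtain ⟨n', m', rfl⟩ := hdec y
    rw [← commutatorElement_eq_one_iff_mul_comm, hl, hr _ (σ _), hr _ (σ _), k2, k3, ← map_commutatorElement,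
      ← map_commutatorElement, commutatorElement_eq_one_iff_mul_comm.mpr (hI _ _),
      commutatorElement_eq_one_iff_mul_comm.mpr (hI _ _)]
    simp
  refine ⟨hcomm, fun x => ?_⟩
  obtain ⟨n, m, rfl⟩ := hdec x
  rw [mul_assoc, ← mul_assoc (m * τ m), hcomm (m * τ m), mul_assoc, h, mul_one, hs]

/-- every element has order dividing `4` or `3` -/
def E34 (G : Type*) [Group G] : Prop := ∀ g : G, g ^ 4 = 1 ∨ g ^ 3 = 1

theorem eq_one43 {g : G} (h4 : g ^ 4 = 1) (h3 : g ^ 3 = 1) : g = 1 := by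
  rw [pow_succ, h3, one_mul] at h4; exact h4

namespace E34

variable (h : E34 G)
include h

theorem nc {u v : G} (hc : Commute u v) (hu : u ^ 4 = 1) (hv : v ^ 3 = 1) : u = 1 ∨ v = 1 := by
  rcases h (u * v) with e | e <;> rw [hc.mul_pow] at e
  · rw [hu, one_mul] at e; exact Or.inr (eq_one43 e hv)
  · rw [hv, mul_one] at e; exact Or.inl (eq_one43 hu e)

theorem quot (N : Subgroup G) [N.Normal] : E34 (G ⧸ N) := fun g => by
  obtain ⟨g, rfl⟩ := QuotientGroup.mk_surjective g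
  exact (h g).imp (fun e => by rw [← QuotientGroup.mk_pow, e]; rfl)
    (fun e => by rw [← QuotientGroup.mk_pow, e]; rfl)

variable [Finite G]

theorem solv : Group.IsSolvable G := by
  refine Char.isSolvable_of_prime_dvd_card Nat.prime_two Nat.prime_three fun r hr hd => ?_
  haveI := Fact.mk hr
  obtain ⟨g, hg⟩ := exists_prime_orderOf_dvd_card' r hd
  rcases h g with e | e
  · left
    exact (Nat.prime_dvd_prime_iff_eq hr Nat.prime_two).mp (hr.dvd_of_dvd_pow
      (show r ∣ 2 ^ 2 from hg ▸ orderOf_dvd_of_pow_eq_one e))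
  · right
    exact (Nat.prime_dvd_prime_iff_eq hr Nat.prime_three).mp (hg ▸ orderOf_dvd_of_pow_eq_one e)

theorem p3 {N : Subgroup G} (hN : (Nat.card N).Coprime 2) {x : G} (hx : x ∈ N) : x ^ 3 = 1 :=
  (h x).elim (fun e => by
    rw [Ambiv.eq_one_of_mem_odd (Nat.coprime_two_right.mp hN) hx (k := 2) e, one_pow]) id

theorem p2 {N : Subgroup G} (hN : (Nat.card N).Coprime 3) {x : G} (hx : x ∈ N) : x ^ 4 = 1 :=
  (h x).elim id fun e => by
    rw [orderOf_eq_one_iff.mp (Nat.eq_one_of_dvd_coprimes hN (N.orderOf_dvd_natCard hx)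
      (orderOf_dvd_of_pow_eq_one e)), one_pow]

theorem p3' {N : Subgroup G} (hN : IsPGroup 3 N) {x : G} (hx : x ∈ N) : x ^ 3 = 1 :=
  haveI : Fact (Nat.Prime 3) := ⟨Nat.prime_three⟩
  h.p3 (Core.isPGroup_coprime_card hN (by norm_num)) hx

theorem p2' {N : Subgroup G} (hN : IsPGroup 2 N) {x : G} (hx : x ∈ N) : x ^ 4 = 1 :=
  haveI : Fact (Nat.Prime 2) := ⟨Nat.prime_two⟩
  h.p2 (Core.isPGroup_coprime_card hN (by norm_num)) hx

theorem cent3 (h1 : pCore 3 G ≠ ⊥) : centralizer (pCore 3 G : Set G) ≤ pCore 3 G := by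
  haveI : Fact (Nat.Prime 3) := ⟨Nat.prime_three⟩
  haveI := h.solv
  refine PSolv.centralizer_pCore_le PSolv.of_isSolvable (eq_bot_iff.mpr fun u hu => ?_)
  obtain ⟨⟨v, hv⟩, hv1⟩ := ne_bot_iff_exists_ne_one.mp h1
  exact (h.nc (Core.pPrimeCore_le_centralizer_pCore hu v hv).symm
    (h.p2 (Core.coprime_card_pPrimeCore 3 G) hu) (h.p3' (Core.isPGroup_pCore 3 G) hv)).resolve_right
    fun e => hv1 (Subtype.ext e)

theorem le3 : pPrimeCore 2 G ≤ pCore 3 G :=
  Core.le_pCore fun x => ⟨1, Subtype.ext (h.p3 (Core.coprime_card_pPrimeCore 2 G) x.2)⟩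

theorem inverts {t : G} (ht : t ^ 2 = 1) (ht1 : t ≠ 1) {n : G} (hn : n ∈ pCore 3 G) :
    t * n * t⁻¹ = n⁻¹ := by
  let φ : MulAut (pCore 3 G) := MulAut.conjNormal t
  have hfpf : MonoidHom.FixedPointFree φ := by
    intro x hx
    have hx' : t * (x : G) * t⁻¹ = x := congrArg Subtype.val hx
    exact Subtype.ext ((h.nc (mul_inv_eq_iff_eq_mul.mp hx') (by
      rw [show 4 = 2 * 2 from rfl, pow_mul, ht, one_pow])
      (h.p3' (Core.isPGroup_pCore 3 G) x.2)).resolve_left ht1)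
  have hinvol : Function.Involutive φ := by
    intro x
    apply Subtype.ext
    change t * (t * (x : G) * t⁻¹) * t⁻¹ = x
    calc t * (t * (x : G) * t⁻¹) * t⁻¹ = t ^ 2 * x * (t ^ 2)⁻¹ := by simp [sq, mul_assoc]
      _ = x := by rw [ht]; simp
  exact congrArg Subtype.val (congrFun (hfpf.coe_eq_inv_of_involutive hinvol) ⟨n, hn⟩)

theorem invol_mem (h1 : pCore 3 G ≠ ⊥) {s t : G} (hs : s ^ 2 = 1) (hs1 : s ≠ 1) (ht : t ^ 2 = 1)
    (ht1 : t ≠ 1) : s⁻¹ * t ∈ pCore 3 G := by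
  refine h.cent3 h1 fun n hn => ?_
  have e1 := h.inverts hs hs1 hn
  have e2 := h.inverts ht ht1 hn
  calc n * (s⁻¹ * t) = s⁻¹ * (s * n * s⁻¹) * t := by group
    _ = s⁻¹ * (t * n * t⁻¹) * t := by rw [e1, e2]
    _ = _ := by group

theorem mem3 (h1 : pCore 3 G ≠ ⊥) {t : G} (ht : t ^ 2 = 1) (ht1 : t ≠ 1) {y : G}
    (hy : (y : G ⧸ pCore 3 G) ^ 3 = 1) : y ∈ pCore 3 G := by
  have e := h.invol_mem h1 ht ht1 (t := y * t * y⁻¹) (by rw [conj_pow, ht]; simp)
    (by simpa using ht1)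
  rw [← QuotientGroup.eq, QuotientGroup.mk_mul, QuotientGroup.mk_mul, QuotientGroup.mk_inv,
    eq_mul_inv_iff_mul_eq] at e
  rcases (h.quot (pCore 3 G)).nc e (by
    rw [← QuotientGroup.mk_pow, show 4 = 2 * 2 from rfl, pow_mul, ht, one_pow]; rfl) hy with e | e
  · refine absurd (eq_one43 (by rw [show 4 = 2 * 2 from rfl, pow_mul, ht, one_pow])
      (h.p3' (Core.isPGroup_pCore 3 G) ((QuotientGroup.eq_one_iff _).mp e))) ht1
  · exact (QuotientGroup.eq_one_iff _).mp e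

theorem caseA (h1 : pCore 3 G ≠ ⊥) {b : G} (hb : orderOf b = 4) :
    IsElementaryAbelian 3 (pCore 3 G) ∧ ((IsCyclic (G ⧸ pCore 3 G) ∧ (pCore 3 G).index = 4) ∨
      Nonempty (G ⧸ pCore 3 G ≃* QuaternionGroup 2)) := by
  haveI : Fact (Nat.Prime 2) := ⟨Nat.prime_two⟩
  have hN := Core.isPGroup_pCore 3 G
  have hb4 : b ^ 4 = 1 := hb ▸ pow_orderOf_eq_one b
  have ht : (b ^ 2) ^ 2 = 1 := by rw [← pow_mul]; exact hb4
  have ht1 : b ^ 2 ≠ 1 := pow_ne_one_of_lt_orderOf (by norm_num) (by rw [hb]; norm_num)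
  refine ⟨⟨⟨⟨fun u v => Subtype.ext ?_⟩⟩, fun a ha => h.p3' hN ha⟩, ?_⟩
  · have e1 := h.inverts ht ht1 (mul_mem u.2 v.2)
    have e2 : b ^ 2 * ((u : G) * v) * (b ^ 2)⁻¹ =
      (b ^ 2 * u * (b ^ 2)⁻¹) * (b ^ 2 * v * (b ^ 2)⁻¹) := by group
    rw [e2, h.inverts ht ht1 u.2, h.inverts ht ht1 v.2, ← mul_inv_rev, inv_inj] at e1
    exact e1.symm
  have h4 : ∀ q : G ⧸ pCore 3 G, q ^ 4 = 1 := fun q => by
    refine (h.quot _ q).elim id fun e => ?_
    obtain ⟨y, rfl⟩ := QuotientGroup.mk_surjective q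
    rw [(QuotientGroup.eq_one_iff _).mpr (h.mem3 h1 ht ht1 e), one_pow]
  have hodd : Odd (Nat.card (pCore 3 G)) := Nat.coprime_two_right.mp
    (haveI : Fact (Nat.Prime 3) := ⟨Nat.prime_three⟩; Core.isPGroup_coprime_card hN (by norm_num))
  have hb' : orderOf (b : G ⧸ pCore 3 G) = 4 := (Ambiv.orderOf_mk hodd (k := 2) hb4).trans hb
  rcases Frob.cyclic_or_quaternion_of_forall_mem_zpowers (p := 2) (G := G ⧸ pCore 3 G)
    (fun q => ⟨2, h4 q⟩) (fun x y hx hy => by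
      obtain ⟨x, rfl, hx'⟩ := Ambiv.exists_lift hodd (k := 1) hx
      obtain ⟨y, rfl, hy'⟩ := Ambiv.exists_lift hodd (k := 1) hy
      rw [← QuotientGroup.eq.mpr (h.invol_mem h1 (orderOf_dvd_iff_pow_eq_one.mp hx'.dvd)
        (fun e => by simp [e] at hx') (orderOf_dvd_iff_pow_eq_one.mp hy'.dvd)
        (fun e => by simp [e] at hy'))]
      exact mem_zpowers _) with hc | ⟨-, n, hn, ⟨e⟩⟩
  · refine Or.inl ⟨hc, Nat.dvd_antisymm ?_ (hb' ▸ orderOf_dvd_natCard _)⟩
    rw [index, ← hc.exponent_eq_card]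
    exact Monoid.exponent_dvd_of_forall_pow_eq_one h4
  · have := orderOf_dvd_of_pow_eq_one (h4 (e.symm (QuaternionGroup.a 1)))
    rw [MulEquiv.orderOf_eq, QuaternionGroup.orderOf_a_one] at this
    have h5 := Nat.le_of_dvd (by norm_num) this
    obtain ⟨m, rfl⟩ := Nat.exists_eq_add_of_le hn
    have : m = 0 := by
      by_contra hm
      have := Nat.one_lt_two_pow hm
      rw [pow_add] at h5
      omega
    subst this
    exact Or.inr ⟨e⟩

theorem card_sylow (h2 : pCore 2 G ≠ ⊥) (h3 : 3 ∣ Nat.card G) (P : Sylow 3 G) :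
    Nat.card (P : Subgroup G) = 3 := by
  haveI : Fact (Nat.Prime 3) := ⟨Nat.prime_three⟩
  haveI : Fact (Nat.Prime 2) := ⟨Nat.prime_two⟩
  rcases Frob.cyclic_or_quaternion_of_rank_one P.isPGroup' (fun E hE h9 => by
    haveI : IsMulCommutative E := IsPGroup.isMulCommutative_of_card_eq_prime_sq h9
    have hc : Nat.card (E.map (P : Subgroup G).subtype) = 3 ^ 2 := by
      rw [card_map_of_injective (subtype_injective _), h9]
    obtain ⟨a, ha, ha1, hne⟩ := Coprime.exists_centralizer_ne_bot (K := pCore 2 G)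
      (A := E.map (P : Subgroup G).subtype) (fun hcy => by
        have := Monoid.exponent_dvd_of_forall_pow_eq_one
          (fun g : E.map (P : Subgroup G).subtype => show g ^ 3 = 1 from
            Subtype.ext (h.p3' (IsPGroup.of_card hc) g.2))
        rw [hcy.exponent_eq_card, hc] at this
        omega) le_normalizer_of_normal
      (by rw [hc]; exact (Core.isPGroup_coprime_card (Core.isPGroup_pCore 2 G) (by norm_num)).symm)
      h2
    obtain ⟨⟨u, hu⟩, hu1⟩ := ne_bot_iff_exists_ne_one.mp hne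
    rcases h.nc (mem_centralizer_singleton_iff.mp hu.2) (h.p2' (Core.isPGroup_pCore 2 G) hu.1)
      (h.p3' (IsPGroup.of_card hc) ha) with e | e
    · exact hu1 (Subtype.ext e)
    · exact ha1 e) with hc | ⟨e, -⟩
  · refine Nat.dvd_antisymm ?_ (P.dvd_card_of_dvd_card h3)
    rw [← hc.exponent_eq_card]
    exact Monoid.exponent_dvd_of_forall_pow_eq_one fun g => Subtype.ext (h.p3' P.isPGroup' g.2)
  · omega

theorem caseB (h1 : pCore 3 G = ⊥) {x b : G} (hx : orderOf x = 3) (hb : orderOf b = 4) :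
    (Monoid.exponent (pCore 2 G) = 4 ∧ Group.nilpotencyClass (pCore 2 G) ≤ 2 ∧
      (pCore 2 G).index = 3) ∨
    (IsElementaryAbelian 2 (pCore 2 G) ∧ Nonempty (G ⧸ pCore 2 G ≃* Equiv.Perm (Fin 3))) := by
  haveI : Fact (Nat.Prime 3) := ⟨Nat.prime_three⟩
  haveI : Fact (Nat.Prime 2) := ⟨Nat.prime_two⟩
  haveI := h.solv
  have hx1 : x ≠ 1 := fun e => by simp [e] at hx
  have hx3 : x ^ 3 = 1 := hx ▸ pow_orderOf_eq_one x
  haveI : Nontrivial G := ⟨⟨x, 1, hx1⟩⟩
  have hN := Core.isPGroup_pCore 2 G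
  set N := pCore 2 G with hNdef
  have h2 : N ≠ ⊥ := (PSolv.pCore_ne_bot_or (p := 2) PSolv.of_isSolvable).resolve_right
    fun e => e (le_bot_iff.mp (h1 ▸ h.le3))
  have hxN : x ∉ N := fun e => hx1 (eq_one43 (h.p2' hN e) hx3)
  have hQ := h.quot N
  haveI : Nontrivial (G ⧸ N) := ⟨⟨x, 1, fun e => hxN ((QuotientGroup.eq_one_iff _).mp e)⟩⟩
  have hR : pCore 3 (G ⧸ N) ≠ ⊥ := fun e =>
    (PSolv.pCore_ne_bot_or (p := 2) PSolv.of_isSolvable).resolve_left
      (not_not.mpr PSolv.pCore_quotient) (le_bot_iff.mp (e ▸ hQ.le3))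
  obtain ⟨P, hP⟩ := (IsPGroup.of_card (G := zpowers x) (p := 3) (n := 1)
    (by rw [Nat.card_zpowers, hx]; rfl)).exists_le_sylow
  have hP3 := h.card_sylow h2 (hx ▸ orderOf_dvd_natCard x) P
  have hPx : (P : Subgroup G) = zpowers x :=
    (eq_of_le_of_card_ge hP (by rw [hP3, Nat.card_zpowers, hx])).symm
  have hs := QuotientGroup.mk'_surjective N
  set R := pCore 3 (G ⧸ N) with hRdef
  have hRle : R ≤ (P : Subgroup G).map (QuotientGroup.mk' N) :=
    Core.pCore_le_sylow (P.mapSurjective hs)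
  have hR3 : Nat.card R = 3 := ((Nat.dvd_prime Nat.prime_three).mp ((card_dvd_of_le hRle).trans
    ((card_map_dvd _ _).trans hP3.dvd))).resolve_left fun e => hR (card_eq_one.mp e)
  have hRe : R = (P : Subgroup G).map (QuotientGroup.mk' N) := eq_of_le_of_card_ge hRle
    (by rw [hR3]; exact Nat.le_of_dvd (by norm_num) ((card_map_dvd _ _).trans hP3.dvd))
  have hRi : R.index ∣ 2 := by
    haveI : IsCyclic R := isCyclic_of_prime_card hR3
    have e1 := card_dvd_of_injective _ (QuotientGroup.kerLift_injective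
      (MulAut.conjNormal : G ⧸ N →* MulAut R))
    rw [IsCyclic.card_mulAut, hR3] at e1
    refine (index_dvd_of_le fun g hg => hQ.cent3 hR fun r hr => ?_).trans e1
    have : g * r * g⁻¹ = r := congrArg (fun φ : MulAut R => (φ ⟨r, hr⟩ : G ⧸ N)) hg
    exact (mul_inv_eq_iff_eq_mul.mp this).symm
  let σ : MulAut N := MulAut.conjNormal x
  have hσ : ∀ n, σ n = n → n = 1 := fun n hn => by
    have hn' : x * (n : G) * x⁻¹ = n := congrArg Subtype.val hn
    exact Subtype.ext ((h.nc (mul_inv_eq_iff_eq_mul.mp hn').symm (h.p2' hN n.2) hx3).resolve_right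
      hx1)
  have hσ3 : ∀ n, σ (σ (σ n)) = n := fun n => Subtype.ext (by
    change x * (x * (x * (n : G) * x⁻¹) * x⁻¹) * x⁻¹ = n
    calc x * (x * (x * (n : G) * x⁻¹) * x⁻¹) * x⁻¹ = x ^ 3 * n * (x ^ 3)⁻¹ := by
          simp [pow_succ, mul_assoc]
      _ = n := by rw [hx3]; simp)
  have hcard := R.card_mul_index
  rcases (Nat.dvd_prime Nat.prime_two).mp hRi with hi | hi
  · left
    rw [hR3, hi] at hcard
    have hbN : b ∈ N := (QuotientGroup.eq_one_iff _).mp (eq_one43 (by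
      rw [← QuotientGroup.mk_pow, ← hb, pow_orderOf_eq_one]; rfl)
      (orderOf_dvd_iff_pow_eq_one.mp ((_root_.orderOf_dvd_natCard _).trans hcard.symm.dvd)))
    haveI := hN.isNilpotent
    refine ⟨Nat.dvd_antisymm (Monoid.exponent_dvd_of_forall_pow_eq_one fun n =>
      Subtype.ext (h.p2' hN n.2)) ?_, Core.nilpotencyClass_le_two_iff.mpr ?_, hcard.symm⟩
    · rw [← hb, ← Subgroup.orderOf_mk b hbN]; exact Monoid.order_dvd_exponent _
    · exact commutator_le.mpr fun a _ c _ => TwoGrp.fpf3_commutator_mem_center hσ hσ3 hN a c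
  · right
    rw [hR3, hi] at hcard
    set K := R.comap (QuotientGroup.mk' N) with hK
    have hPK : (P : Subgroup G) ≤ K := map_le_iff_le_comap.mp hRe.ge
    obtain ⟨t, ht, htK⟩ := SetLike.not_le_iff_exists.mp fun hle : normalizer (P : Set G) ≤ K => by
      have := P.normalizer_sup_eq_top' hPK
      rw [sup_eq_right.mpr hle] at this
      rw [← index_comap_of_surjective R hs, ← hK, this, index_top] at hi
      omega
    obtain ⟨s, hs2⟩ := exists_prime_orderOf_dvd_card' (G := G ⧸ N) 2 (by rw [← hcard]; norm_num)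
    have hs1 : s ≠ 1 := fun e => by simp [e] at hs2
    have ht4 : t ^ 4 = 1 := (h t).resolve_right fun e => htK
      (hQ.mem3 hR (orderOf_dvd_iff_pow_eq_one.mp hs2.dvd) hs1 (by
        rw [← QuotientGroup.mk_pow, QuotientGroup.mk'_apply, ← QuotientGroup.mk_pow, e]; rfl))
    have ht1 : t ≠ 1 := fun e => htK (e ▸ one_mem _)
    have htx : t * x * t⁻¹ = x * x := by
      have h5 : t * x * t⁻¹ ∈ zpowers x := hPx ▸ (mem_normalizer_iff.mp ht x).mp (hP (mem_zpowers x))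
      classical
      rw [mem_zpowers_iff_mem_range_orderOf, hx] at h5
      simp only [Finset.mem_image, Finset.mem_range] at h5
      obtain ⟨i, hi3, e⟩ := h5
      interval_cases i
      · exact absurd (by simpa using e.symm) hx1
      · exact absurd ((h.nc (mul_inv_eq_iff_eq_mul.mp (by simpa using e.symm)) ht4 hx3).resolve_right
          hx1) ht1
      · rw [← e, sq]
    have ht2 : t * t = 1 := by
      refine (h.nc (u := t * t) (v := x) ?_ (by rw [← sq, ← pow_mul, mul_comm, pow_mul, ht4, one_pow])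
        hx3).resolve_right hx1
      refine mul_inv_eq_iff_eq_mul.mp ?_
      calc t * t * x * (t * t)⁻¹ = t * (t * x * t⁻¹) * t⁻¹ := by group
        _ = t * (x * x) * t⁻¹ := by rw [htx]
        _ = (t * x * t⁻¹) * (t * x * t⁻¹) := by group
        _ = x ^ 3 * x := by rw [htx]; simp [pow_succ, mul_assoc]
        _ = x := by rw [hx3, one_mul]
    obtain ⟨c1, c2⟩ := s3_action hN (τ := MulAut.conjNormal t) hσ hσ3 (fun n => Subtype.ext (by
      change t * (x * (n : G) * x⁻¹) * t⁻¹ = x * (x * (t * n * t⁻¹) * x⁻¹) * x⁻¹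
      calc t * (x * (n : G) * x⁻¹) * t⁻¹ = (t * x * t⁻¹) * (t * n * t⁻¹) * (t * x * t⁻¹)⁻¹ := by group
        _ = _ := by rw [htx]; group)) (fun n => Subtype.ext (by
      change (n : G) * (t * n * t⁻¹) * (n * (t * n * t⁻¹)) = 1
      rw [inv_eq_of_mul_eq_one_right ht2]
      rcases h (n * t) with e | e
      · rw [← e]; simp [pow_succ, mul_assoc]
      · refine absurd (hQ.mem3 hR (orderOf_dvd_iff_pow_eq_one.mp hs2.dvd) hs1 ?_) htK
        have : ((n * t : G) : G ⧸ N) = t := by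
          rw [QuotientGroup.mk_mul, (QuotientGroup.eq_one_iff _).mpr n.2, one_mul]
        rw [← QuotientGroup.mk_pow, QuotientGroup.mk'_apply, ← this, ← QuotientGroup.mk_pow, e]
        rfl))
    refine ⟨⟨⟨⟨c1⟩⟩, fun a ha => by rw [sq]; exact congrArg Subtype.val (c2 ⟨a, ha⟩)⟩,
      Ambiv.perm3 hcard.symm (H := zpowers s) (by rw [Nat.card_zpowers, hs2]) fun hn => ?_⟩
    obtain ⟨⟨r, hr⟩, hr1⟩ := ne_bot_iff_exists_ne_one.mp hR
    rcases hQ.nc (commute_of_normal_of_disjoint _ R hn inferInstance 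
      (disjoint_of_coprime_natCard (by rw [Nat.card_zpowers, hs2, hR3]; norm_num)) s r (mem_zpowers s) hr)
      (orderOf_dvd_iff_pow_eq_one.mp (by rw [hs2]; norm_num))
      (hQ.p3' (Core.isPGroup_pCore 3 _) hr) with e | e
    · exact hs1 e
    · exact hr1 (Subtype.ext e)

end E34

theorem s4006 [Finite G] (h : Set.range (orderOf : G → ℕ) = {k : ℕ | 1 ≤ k ∧ k ≤ 4}) :
    ∃ (N : Subgroup G) (_ : N.Normal),
      (IsPGroup 2 ↥N ∧ Monoid.exponent ↥N = 4 ∧ Group.nilpotencyClass ↥N ≤ 2 ∧ N.index = 3) ∨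
      (IsElementaryAbelian 2 N ∧ Nonempty (G ⧸ N ≃* Equiv.Perm (Fin 3))) ∨
      (IsElementaryAbelian 3 N ∧ ((IsCyclic (G ⧸ N) ∧ N.index = 4) ∨
        Nonempty (G ⧸ N ≃* QuaternionGroup 2))) := by
  have hE : E34 G := fun g => by
    have : orderOf g ∈ {k : ℕ | 1 ≤ k ∧ k ≤ 4} := h ▸ Set.mem_range_self g
    obtain ⟨h1, h2⟩ := this
    simp only [← orderOf_dvd_iff_pow_eq_one]
    generalize orderOf g = k at h1 h2
    interval_cases k <;> simp
  obtain ⟨x, hx⟩ : 3 ∈ Set.range (orderOf : G → ℕ) := by rw [h]; simp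
  obtain ⟨b, hb⟩ : 4 ∈ Set.range (orderOf : G → ℕ) := by rw [h]; simp
  by_cases h1 : pCore 3 G = ⊥
  · exact ⟨pCore 2 G, inferInstance, (hE.caseB h1 hx hb).elim
      (fun e => Or.inl ⟨Core.isPGroup_pCore 2 G, e⟩) fun e => Or.inr (Or.inl e)⟩
  · exact ⟨pCore 3 G, inferInstance, Or.inr (Or.inr (hE.caseA h1 hb))⟩

end CfsgLib.Spec34
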