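import Mathlib
import Cfsg.Agent.Lib.Spec34.Basic

/-!
# Groups whose elements have order at most three
-/

set_option autoImplicit false

namespace CfsgLib.Spec34

open Subgroup Cfsg CfsgLib.PLocal

variable {G : Type*} [Group G]

theorem s4005 [Finite G] (h : Set.range (orderOf : G → ℕ) = {k : ℕ | 1 ≤ k ∧ k ≤ 3}) :
    (∃ N : Subgroup G, N.Normal ∧ IsElementaryAbelian 3 N ∧ N.index = 2) ∨
      (∃ N : Subgroup G, N.Normal ∧ IsElementaryAbelian 2 N ∧ N.index = 3) := by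
  haveI : Fact (Nat.Prime 3) := ⟨Nat.prime_three⟩
  haveI : Fact (Nat.Prime 2) := ⟨Nat.prime_two⟩
  have h23 : ∀ g : G, g ^ 2 = 1 ∨ g ^ 3 = 1 := fun g => by
    have : orderOf g ∈ {k : ℕ | 1 ≤ k ∧ k ≤ 3} := h ▸ Set.mem_range_self g
    obtain ⟨h1, h2⟩ := this
    simp only [← orderOf_dvd_iff_pow_eq_one]
    generalize orderOf g = k at h1 h2
    interval_cases k <;> simp
  have h24 : ∀ g : G, g ^ 2 = 1 → g ^ 4 = 1 := fun g e => by
    rw [show 4 = 2 * 2 from rfl, pow_mul, e, one_pow]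
  have hE : E34 G := fun g => (h23 g).imp_left (h24 g)
  obtain ⟨x, hx⟩ : 3 ∈ Set.range (orderOf : G → ℕ) := by rw [h]; simp
  obtain ⟨t, ht⟩ : 2 ∈ Set.range (orderOf : G → ℕ) := by rw [h]; simp
  have hx1 : x ≠ 1 := fun e => by simp [e] at hx
  have hx3 : x ^ 3 = 1 := hx ▸ pow_orderOf_eq_one x
  have ht1 : t ≠ 1 := fun e => by simp [e] at ht
  have ht2 : t ^ 2 = 1 := ht ▸ pow_orderOf_eq_one t
  by_cases h1 : pCore 3 G = ⊥
  · right
    haveI := hE.solv
    haveI : Nontrivial G := ⟨⟨x, 1, hx1⟩⟩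
    have hN := Core.isPGroup_pCore 2 G
    have h0 : pPrimeCore 2 G = ⊥ := le_bot_iff.mp (h1 ▸ hE.le3)
    have h2 : pCore 2 G ≠ ⊥ := (PSolv.pCore_ne_bot_or (p := 2) PSolv.of_isSolvable).resolve_right
      fun e => e h0
    have hn2 : ∀ n ∈ pCore 2 G, n ^ 2 = 1 := fun n hn => (h23 n).elim id fun e => by
      rw [eq_one43 (hE.p2' hN hn) e, one_pow]
    have hc : ∀ s : G, s ^ 2 = 1 → ∀ n ∈ pCore 2 G, n * s = s * n := fun s hs n hn => by
      have e : (n * s) ^ 2 = 1 := (h23 _).elim id fun e => by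
        have e1 : ((n * s : G) : G ⧸ pCore 2 G) = s := by
          rw [QuotientGroup.mk_mul, (QuotientGroup.eq_one_iff _).mpr hn, one_mul]
        refine hn2 _ (mul_mem hn ((QuotientGroup.eq_one_iff _).mp (eq_one43 ?_ ?_)))
        · rw [← QuotientGroup.mk_pow, h24 s hs]; rfl
        · rw [← e1, ← QuotientGroup.mk_pow, e]; rfl
      have e2 := hn2 n hn
      rw [sq] at e hs e2
      rw [← inv_eq_of_mul_eq_one_right e, mul_inv_rev, inv_eq_of_mul_eq_one_right hs,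
        inv_eq_of_mul_eq_one_right e2]
    refine ⟨pCore 2 G, inferInstance, ⟨⟨⟨fun u v => Subtype.ext (hc v (hn2 v v.2) u u.2)⟩⟩, hn2⟩, ?_⟩
    have hQ : IsPGroup 3 (G ⧸ pCore 2 G) := fun q => ⟨1, by
      obtain ⟨y, rfl⟩ := QuotientGroup.mk_surjective q
      rcases h23 y with e | e
      · rw [(QuotientGroup.eq_one_iff _).mpr
          (PSolv.centralizer_pCore_le PSolv.of_isSolvable h0 (hc y e)), one_pow]
      · rw [pow_one, ← QuotientGroup.mk_pow, e]; rfl⟩
    obtain ⟨k, hk⟩ := IsPGroup.iff_card.mp hQ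
    obtain ⟨P⟩ : Nonempty (Sylow 3 G) := inferInstance
    have hd := P.pow_dvd_card_of_pow_dvd_card (hk.symm.dvd.trans (pCore 2 G).index_dvd_card)
    rw [hE.card_sylow h2 (hx ▸ _root_.orderOf_dvd_natCard x) P, ← hk] at hd
    refine ((Nat.dvd_prime Nat.prime_three).mp hd).resolve_left fun e => ?_
    have e' : pCore 2 G = ⊤ := index_eq_one.mp e
    exact hx1 (eq_one43 (hE.p2' hN (e' ▸ mem_top x)) hx3)
  · left
    have hN := Core.isPGroup_pCore 3 G
    refine ⟨pCore 3 G, inferInstance, ⟨⟨⟨fun u v => Subtype.ext ?_⟩⟩, fun a ha => hE.p3' hN ha⟩, ?_⟩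
    · have e1 := hE.inverts ht2 ht1 (mul_mem u.2 v.2)
      have e2 : t * ((u : G) * v) * t⁻¹ = (t * u * t⁻¹) * (t * v * t⁻¹) := by group
      rw [e2, hE.inverts ht2 ht1 u.2, hE.inverts ht2 ht1 v.2, ← mul_inv_rev, inv_inj] at e1
      exact e1.symm
    · refine index_eq_two_iff_exists_notMem_and.mpr
        ⟨t, fun e => ht1 (eq_one43 (h24 t ht2) (hE.p3' hN e)), fun b => ?_⟩
      by_cases hb : b = 1
      · exact Or.inr (hb ▸ one_mem _)
      rcases h23 b with e | e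
      · exact Or.inl (by
          simpa using hE.invol_mem h1 (s := b⁻¹) (by rw [inv_pow, e, inv_one]) (by simpa using hb)
            ht2 ht1)
      · exact Or.inr (hE.mem3 h1 ht2 ht1 (by rw [← QuotientGroup.mk_pow, e]; rfl))

end CfsgLib.Spec34
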